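import Cfsg.Agent.H466.KS.A12

/-!
# S4577, PA13 (helper466): a defect class at which the characters of a given root do not vanish
-/

set_option autoImplicit false
set_option linter.unusedSectionVars false

open Cfsg Cfsg.Agent.H613.KS

universe u

namespace Cfsg.Agent.H466.KS

open Cfsg.Agent.H644 Cfsg.Agent.Blocks.Local Cfsg.Agent.H648.Dict Cfsg.Agent.H466.KKL
open Cfsg.Agent.Blocks.Basic (isPBlock_nonempty)

section Syl

variable {G : Type u} [Group G] [Finite G]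

/-- the Sylow property for a Sylow subgroup of the centralizer -/
theorem syl_prop {x : G} (P : Sylow 2 (Subgroup.centralizer ({x} : Set G))) {D : Subgroup G}
    (hP : D = (P : Subgroup (Subgroup.centralizer ({x} : Set G))).map (Subgroup.centralizer ({x} : Set G)).subtype)
    (Q : Subgroup G) (hQ : IsPGroup 2 Q) (hQx : ∀ q ∈ Q, q * x = x * q) :
    ∃ c : G, c * x = x * c ∧ ∀ q ∈ Q, c * q * c⁻¹ ∈ D := by
  have hf : Fact (Nat.Prime 2) := ⟨Nat.prime_two⟩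
  have hle : Q ≤ Subgroup.centralizer ({x} : Set G) := fun q hq =>
    Subgroup.mem_centralizer_singleton_iff.2 (hQx q hq)
  have hQ' : IsPGroup 2 (Q.subgroupOf (Subgroup.centralizer ({x} : Set G))) := hQ.comap_subtype
  obtain ⟨S, hS⟩ := hQ'.exists_le_sylow
  obtain ⟨c, hc⟩ := MulAction.exists_smul_eq (Subgroup.centralizer ({x} : Set G)) S P
  refine ⟨c, Subgroup.mem_centralizer_singleton_iff.1 c.2, fun q hq => ?_⟩
  rw [hP]
  refine ⟨c * ⟨q, hle hq⟩ * c⁻¹, ?_, rfl⟩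
  rw [← hc]
  have h1 : (⟨q, hle hq⟩ : Subgroup.centralizer ({x} : Set G)) ∈ (S : Subgroup _) :=
    hS (Subgroup.mem_subgroupOf.2 hq)
  have h2 := Subgroup.smul_mem_pointwise_smul _ (MulAut.conj c) _ h1
  exact h2

/-- the Sylow property passes to the conjugates of `x₀` in `C_G(D)` -/
theorem syl_prop_conj {x₀ x : G} {D : Subgroup G} (hD2 : IsPGroup 2 D)
    (hs : ∀ Q : Subgroup G, IsPGroup 2 Q → (∀ q ∈ Q, q * x₀ = x₀ * q) → ∃ c : G, c * x₀ = x₀ * c ∧ ∀ q ∈ Q, c * q * c⁻¹ ∈ D)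
    (hx : IsConj x₀ x) (hDx : ∀ d ∈ D, d * x = x * d) (Q : Subgroup G) (hQ : IsPGroup 2 Q)
    (hQx : ∀ q ∈ Q, q * x = x * q) : ∃ c : G, c * x = x * c ∧ ∀ q ∈ Q, c * q * c⁻¹ ∈ D := by
  obtain ⟨g, hg⟩ := isConj_iff.1 hx
  -- conjugation of subgroups centralizing `x`
  have key : ∀ Q : Subgroup G, IsPGroup 2 Q → (∀ q ∈ Q, q * x = x * q) →
      ∃ c : G, c * x * c⁻¹ = x₀ ∧ ∀ q ∈ Q, c * q * c⁻¹ ∈ D := by
    intro Q hQ hQx
    obtain ⟨c, hc, hcQ⟩ := hs (Q.map (MulAut.conj g⁻¹).toMonoidHom) (hQ.map _) (by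
      rintro _ ⟨q, hq, rfl⟩
      show g⁻¹ * q * g⁻¹⁻¹ * x₀ = x₀ * (g⁻¹ * q * g⁻¹⁻¹)
      have h1 := hQx q hq
      rw [← hg] at h1
      calc g⁻¹ * q * g⁻¹⁻¹ * x₀ = g⁻¹ * (q * (g * x₀ * g⁻¹)) * g := by group
        _ = g⁻¹ * ((g * x₀ * g⁻¹) * q) * g := by rw [h1]
        _ = x₀ * (g⁻¹ * q * g⁻¹⁻¹) := by group)
    refine ⟨c * g⁻¹, ?_, fun q hq => ?_⟩
    · rw [← hg]
      calc c * g⁻¹ * (g * x₀ * g⁻¹) * (c * g⁻¹)⁻¹ = c * x₀ * c⁻¹ := by group
        _ = x₀ := by rw [hc, mul_inv_cancel_right]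
    · have h1 := hcQ (g⁻¹ * q * g⁻¹⁻¹) ⟨q, hq, rfl⟩
      have h2 : c * g⁻¹ * q * (c * g⁻¹)⁻¹ = c * (g⁻¹ * q * g⁻¹⁻¹) * c⁻¹ := by group
      rw [h2]
      exact h1
  obtain ⟨n, hn, hnD⟩ := key D hD2 hDx
  -- `n` normalises `D`
  have hn1 : D.map (MulAut.conj n).toMonoidHom = D := by
    refine Subgroup.eq_of_le_of_card_ge ?_ ?_
    · rintro _ ⟨d, hd, rfl⟩
      exact hnD d hd
    · exact (Nat.card_congr (D.equivMapOfInjective _ (MulAut.conj n).injective).symm.toEquiv).ge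
  have hn2 : ∀ d ∈ D, n⁻¹ * d * n ∈ D := by
    intro d hd
    rw [← hn1] at hd
    obtain ⟨e, he, rfl⟩ := hd
    have h1 : n⁻¹ * (n * e * n⁻¹) * n = e := by group
    show n⁻¹ * (n * e * n⁻¹) * n ∈ D
    rw [h1]
    exact he
  obtain ⟨c, hc, hcQ⟩ := key Q hQ hQx
  refine ⟨n⁻¹ * c, ?_, fun q hq => ?_⟩
  · have h1 : c * x * c⁻¹ = n * x * n⁻¹ := by rw [hc, hn]
    have h2 : c * x = n * x * n⁻¹ * c := by rw [← h1]; group
    calc n⁻¹ * c * x = n⁻¹ * (c * x) := by group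
      _ = n⁻¹ * (n * x * n⁻¹ * c) := by rw [h2]
      _ = x * (n⁻¹ * c) := by group
  · have h1 := hn2 _ (hcQ q hq)
    have h2 : n⁻¹ * c * q * (n⁻¹ * c)⁻¹ = n⁻¹ * (c * q * c⁻¹) * n := by group
    rw [h2]
    exact h1

end Syl

/-- **PA13** -/
theorem PA13 : Cfsg.Agent.H613.KS.Props.PA13.{u} := by
  intro G _ _ M hM B hB D hD h16 c hc
  have hf : Fact (Nat.Prime 2) := ⟨Nat.prime_two⟩
  have hMp : M.IsPrime := isPrime_of_isPModular hM
  have hDp : IsPGroup 2 D := Cfsg.Agent.Blocks.Basic.isPGroup_of_isDefectGroup hD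
  obtain ⟨x₀, hx₀, P, hP⟩ := hD
  obtain ⟨hcB, hB', hind⟩ := isInducedBlock_iff.1 hc
  obtain ⟨ξ, hξ⟩ := isPBlock_nonempty hcB
  obtain ⟨χ, hχ⟩ := isPBlock_nonempty hB
  have h1 : lam M (ξ : ↥(Subgroup.centralizer (D : Set G)) → ℂ) (res (Subgroup.centralizer (D : Set G)) (clsSum M x₀)) ≠ 0 := by
    rw [hind ξ hξ χ hχ _ (isCls_clsSum x₀), lam_clsSum, ne_eq, redC_eq_zero_iff (memLocalRing_centralChar χ x₀)]
    exact hx₀.2.2 χ hχ
  obtain ⟨h, hh, hne⟩ : ∃ h : Subgroup.centralizer (D : Set G),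
      (res (Subgroup.centralizer (D : Set G)) (clsSum M x₀)).coeff h ≠ 0 ∧
        lam M (ξ : ↥(Subgroup.centralizer (D : Set G)) → ℂ) (clsSum M h) ≠ 0 := by
    by_contra hcon
    push Not at hcon
    apply h1
    have h2 := eq_of_clsSum (F := lam M (ξ : ↥(Subgroup.centralizer (D : Set G)) → ℂ)) (F' := 0)
      (x := res (Subgroup.centralizer (D : Set G)) (clsSum M x₀)) (isCls_res (isInv_of_isCls (isCls_clsSum x₀) _))
      (fun g hg => by rw [LinearMap.zero_apply]; exact hcon g hg)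
    rw [h2, LinearMap.zero_apply]
  have hconj : IsConj x₀ (h : G) := by
    by_contra hcon
    apply hh
    rw [coeff_res, coeff_clsSum, if_neg hcon]
  have hcomm : ∀ d ∈ D, d * (h : G) = (h : G) * d := fun d hd => Subgroup.mem_centralizer_iff.1 h.2 d hd
  refine ⟨h, ?_, hcomm, ?_, ?_⟩
  · have h2 : orderOf (h : G) = orderOf x₀ := by
      obtain ⟨g, hg⟩ := isConj_iff.1 hconj
      rw [← hg]
      exact orderOf_injective (MulAut.conj g).toMonoidHom (MulAut.conj g).injective x₀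
    rw [h2, ← Nat.not_even_iff_odd, even_iff_two_dvd]
    exact not_dvd_orderOf hM hB hx₀.2.1
  · exact fun Q hQ hQx => syl_prop_conj hDp (fun Q hQ hQx => syl_prop P hP Q hQ hQx) hconj hcomm Q hQ hQx
  · intro θ hθ hmem h0
    apply hne
    have h2 := lam_eq_of_mem hcB hξ hθ
    have h3 : (⟨(h : G), hmem⟩ : Subgroup.centralizer (D : Set G)) = h := rfl
    rw [h3] at h0
    rw [h2, lam_clsSum, redC_eq_zero_iff (memLocalRing_centralChar θ h)]
    have h4 : centralChar (θ : ↥(Subgroup.centralizer (D : Set G)) → ℂ) h = 0 := by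
      unfold centralChar
      rw [h0, mul_zero, zero_div]
    rw [h4]
    exact memLocalIdeal_zero

end Cfsg.Agent.H466.KS
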